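/-
Class sizes of `p`-singular elements.
-/
import Cfsg.Agent.FT.B.Pi
import Cfsg.Agent.FT.B.Core
import Cfsg.Agent.H7.ClassProd
import Cfsg.Agent.H9.ClassSize
import Cfsg.Agent.H8.PComplement
import Cfsg.Agent.H6.Induction

set_option autoImplicit false

namespace Cfsg.Agent.P10.Q

open Subgroup Cfsg Cfsg.Agent Cfsg.Agent.FT
open Cfsg.Agent.H7 (cs)

variable {G : Type*} [Group G] [Finite G] {p : ℕ} [hp : Fact p.Prime]

theorem central_of_pow {P : Subgroup G} [P.Normal] (hP : IsPGroup p P) (hi : ¬ p ∣ P.index)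
    (h : ∀ z ∈ P, z ∉ 𝐂(P) → ∃ a, cs z = p ^ a) {u v : G} (hv : v ∈ P) (v1 : v ∉ 𝐂(P))
    (hu : u ∈ P) (u1 : u ∈ 𝐂(P)) : u ∈ center G := by
  obtain ⟨n, hn⟩ := IsPGroup.iff_card.1 hP
  have nP : ∀ X : Subgroup G, X ≤ 𝐍(P) := fun X => le_top.trans (normalizer_eq_top P).ge
  have co : P.index.Coprime 𝐨(P) := hn ▸ (hp.out.coprime_iff_not_dvd.2 hi).symm.pow_right n
  have key : ∀ z ∈ P, z ∉ 𝐂(P) → ∃ H ≤ 𝐂[z], H ⊔ P = ⊤ ∧ 𝐨(H) = P.index := fun z hz z1 => by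
    obtain ⟨a, ha⟩ := h z hz z1
    have e : P ⊔ 𝐂[z] = ⊤ := eq_top_iff.2 fun g _ => by
      obtain ⟨b, hb, c, hc, rfl⟩ := H9.exists_mul_eq_of_coprime_index (H := P) (K := 𝐂[z])
        (by rw [show 𝐂[z].index = _ from ha]; exact (hp.out.coprime_iff_not_dvd.2 hi).symm.pow_right a) g
      exact mul_mem (mem_sup_left hb) (mem_sup_right hc)
    have e' : (P ⊓ 𝐂[z]).relIndex 𝐂[z] = P.index := by
      rw [inf_relIndex_right, ← relIndex_sup_of_norm (nP _), e, relIndex_top_right]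
    obtain ⟨H, h1, h2, -, h3⟩ := H1.exists_complement_of_coprime (N := P ⊓ 𝐂[z]) inf_le_right
      (H1.le_normalizer_inf (nP _) (le_norm_self _))
      (e' ▸ co.symm.coprime_dvd_left (FT.card_dvd_of_le inf_le_left))
    refine ⟨H, h1, top_le_iff.1 ?_, h3.trans e'⟩
    rw [← e, ← h2]
    exact sup_le le_sup_right (sup_le_sup_left inf_le_left _)
  obtain ⟨H, h1, h2, h3⟩ := key v hv v1
  have k2 : ∀ z ∈ P, z ∉ 𝐂(P) → ∃ n ∈ P, n * z * n⁻¹ ∈ P ⊓ 𝐂(H) := fun z hz z1 => by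
    obtain ⟨K, k1, -, k3⟩ := key z hz z1
    obtain ⟨n, hn, e⟩ := H1.exists_conj_eq_of_le_sup (nP H) (h3 ▸ co)
      (.inr (H1.isSolvable_of_isPGroup hP)) (h2 ▸ le_top) (k3.trans h3.symm)
    refine ⟨n, hn, mem_inf.2 ⟨mul_mem (mul_mem hn hz) (inv_mem hn), ?_⟩⟩
    rw [← e]
    rintro _ ⟨k, hk, rfl⟩
    simp [mul_assoc, ← mul_assoc z, mem_cent1.1 (k1 hk)]
  have k3 : P ≤ 𝐍((P ⊓ 𝐂(H) : Subgroup G)) := by
    refine (subgroupOf_eq_top.1 (H6.eq_top_of_forall_exists_conj_mem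
      ((𝐂(P) ⊔ P ⊓ 𝐂(H)).subgroupOf P) fun z => ?_)).trans
      (sup_le ((cent_anti inf_le_left).trans (cent_le_norm _)) (le_norm_self _))
    by_cases z1 : (z : G) ∈ 𝐂(P)
    · exact ⟨1, by simpa [mem_subgroupOf] using mem_sup_left z1⟩
    · obtain ⟨n, hn, e⟩ := k2 z z.2 z1
      exact ⟨⟨n, hn⟩⁻¹, by simpa [mem_subgroupOf] using mem_sup_right e⟩
  obtain ⟨n, hn, e⟩ := k2 (u * v) (mul_mem hu hv) (by rwa [mul_mem_cancel_left u1])
  have := (mul_mem_cancel_right (mem_cent_iff_cent1.2 h1)).1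
    (mem_inf.1 ((mem_normalizer_iff.1 (k3 hn) _).2 e)).2
  rw [← centralizer_univ, ← coe_top, ← h2, cent_sup]
  exact ⟨this, u1⟩

theorem core (hZ : ¬ p ∣ 𝐨(center G)) {r s : ℕ} (hr : r.Prime) (hs : s.Prime) {x y : G}
    (px : p ∣ orderOf x) (rx : r ∣ cs x) (py : p ∣ orderOf y) (sy : s ∣ cs y)
    (hA : ∀ z : G, p ∣ orderOf z → r ∣ cs z → ¬ p ∣ cs z)
    (hd : ∀ (x y z : G) (a b : ℕ), a.Prime → b.Prime → p ∣ orderOf x → p ∣ orderOf y →
      p ∣ orderOf z → r ∣ cs x → a ∣ cs x → a ∣ cs z → b ∣ cs z → b ∣ cs y → s ∣ cs y → False) :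
    False := by
  have dv : ∀ {a b : G}, a ∈ zpowers b → cs a ∣ cs b := H9.index_centralizer_dvd_of_mem_zpowers
  have od : ∀ {a b : G}, a ∈ zpowers b → orderOf a ∣ orderOf b := orderOf_dvd_of_mem_zpowers
  have pk : ∀ {w : G} {k : ℕ}, orderOf w = p ^ k → w ≠ 1 → p ∣ orderOf w := fun {w k} e w1 =>
    e ▸ dvd_pow_self p fun e' => w1 (orderOf_eq_one_iff.1 (by rw [e, e', pow_zero]))
  have part : ∀ z : G, p ∣ orderOf z → ∃ a b : G, a ∈ zpowers z ∧ b ∈ zpowers z ∧ z = a * b ∧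
      (∃ k, orderOf a = p ^ k) ∧ (orderOf b).Coprime p ∧ p ∣ orderOf a := fun z hz => by
    obtain ⟨a, b, h1, h2, h3, -, ⟨k, h4⟩, h5⟩ := H8.exists_pPart_pPrimePart hp.out z
    refine ⟨a, b, h1, h2, h3, ⟨k, h4⟩, h5, pk h4 fun e => ?_⟩
    rw [h3, e, one_mul] at hz
    exact hp.out.one_lt.ne' (h5.symm.eq_one_of_dvd hz)
  obtain ⟨v, -, vy, -, -, ⟨k, ov⟩, -, pv⟩ := part y py
  have vZ : v ∉ center G := fun e => hZ (pv.trans (Subgroup.orderOf_dvd_natCard _ e))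
  obtain ⟨b0, hb0, bv⟩ := Nat.exists_prime_and_dvd (mt H9.index_centralizer_eq_one_iff.1 vZ)
  have LA : ∀ z : G, p ∣ orderOf z → r ∣ cs z → ∀ h ∈ zpowers z, (orderOf h).Coprime p →
      h ∈ center G := fun z pz rz h hz ch => of_not_not fun e => by
    obtain ⟨a, ha, ah⟩ := Nat.exists_prime_and_dvd (mt H9.index_centralizer_eq_one_iff.1 e)
    obtain ⟨g, hg⟩ := H7.exists_conj_mem_of_not_dvd_index ov (hA z pz rz)
    have c : Commute h (g * v * g⁻¹) :=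
      mem_cent1_iff_commute.1 (cent1_le_cent1_of_mem_zpowers hz hg)
    have o : orderOf (g * v * g⁻¹) = orderOf v := (MulAut.conj g).orderOf_eq v
    have cp : (orderOf h).Coprime (orderOf (g * v * g⁻¹)) := by rw [o, ov]; exact ch.pow_right k
    have m := H9.mem_zpowers_mul_of_coprime' c cp
    exact hd z y _ a b0 ha hb0 pz py ((o ▸ pv).trans (od m)) rz (ah.trans (dv hz))
      (ah.trans (dv (H9.mem_zpowers_mul_of_coprime c cp)))
      (((H9.index_centralizer_conj g v).symm ▸ bv :).trans (dv m)) (bv.trans (dv vy)) sy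
  obtain ⟨u, h, ux, hx, rfl, ⟨m, ou⟩, ch, pu⟩ := part x px
  have ru : r ∣ cs u := rx.trans (index_dvd_of_le fun g hg => mem_cent1.2 (by
    rw [mul_assoc, ← mem_center_iff.1 (LA _ px rx h hx ch), ← mul_assoc, mem_cent1.1 hg, mul_assoc]))
  have LB : ∀ z : G, p ∣ orderOf z → s ∣ cs z → ∀ {b : ℕ}, b.Prime → b ∣ cs z → b = p :=
    fun z pz sz b hb bz => of_not_not fun e => by
      haveI := Fact.mk hb
      obtain ⟨R, hR⟩ := H9.not_dvd_index_iff_exists_sylow_le.1 fun e' : b ∣ cs u =>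
        hd u z u b b hb hb pu pz pu ru e' e' e' bz sz
      refine R.not_dvd_index (bz.trans (index_dvd_of_le fun g hg => center_le_centralizer _ ?_))
      obtain ⟨j, og⟩ := H8.exists_orderOf_eq_pow_of_mem R.isPGroup' hg
      have c := mem_cent1_iff_commute.1 (hR hg)
      have cg : (orderOf g).Coprime p := og ▸ ((Nat.coprime_primes hb hp.out).2 e).pow_left j
      have cp : (orderOf u).Coprime (orderOf g) := ou ▸ cg.symm.pow_left m
      have m := H9.mem_zpowers_mul_of_coprime c cp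
      exact LA _ (pu.trans (od m)) (ru.trans (dv m)) g (H9.mem_zpowers_mul_of_coprime' c cp) cg
  obtain rfl := LB y py sy hs sy
  have LC : ∀ z : G, s ∣ orderOf z → s ∣ cs z → ∃ a, cs z = s ^ a := fun z pz sz =>
    ⟨_, Nat.eq_prime_pow_of_unique_prime_dvd index_ne_zero_of_finite (LB z pz sz)⟩
  obtain rfl := LB y py sy hb0 (bv.trans (dv vy))
  have ne : ∀ z : G, b0 ∣ cs z → z ≠ 1 := fun z e z1 => hs.one_lt.ne' (Nat.dvd_one.1 (by
    rwa [z1, cs, H9.index_centralizer_eq_one_iff.2 (one_mem _)] at e))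
  have LD : ∀ (z : G) (j : ℕ), orderOf z = b0 ^ j → b0 ∣ cs z → z ∈ pCore b0 G := fun z j oz e =>
    (LC z (pk oz (ne z e)) e).elim fun a ha => H9.mem_pCore_of_index_centralizer_eq_pow oz ha
  have vQ := LD v k ov bv
  obtain ⟨a, ha⟩ := LC v pv bv
  have hQ := L.isPGroup_pCore (G := G) b0
  have LE : ∀ (w : G) (j : ℕ), orderOf w = b0 ^ j → w ∈ pCore b0 G := fun w j ow => by
    by_cases e : b0 ∣ cs w
    · exact LD w j ow e
    obtain ⟨P, wP, -⟩ := H9.exists_sylow_mem_and_le_centralizer ow e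
    obtain ⟨i, oi⟩ := H8.exists_orderOf_eq_pow_of_mem P.isPGroup'
      (mul_mem (L.pCore_le_sylow P vQ) wP)
    by_cases e' : b0 ∣ cs (v * w)
    · exact (mul_mem_cancel_left vQ).1 (LD _ i oi e')
    obtain ⟨M, -, h1, h2⟩ := H7.exists_normal_classStab w
    refine absurd (mem_center_iff.2 fun g => ?_) vZ
    have h3 := h2 v (ha ▸ (hs.coprime_iff_not_dvd.2 e).pow_left a)
      (ha ▸ (hs.coprime_iff_not_dvd.2 e').pow_left a) g
    obtain ⟨l, ol⟩ := H8.exists_orderOf_eq_pow_of_mem hQ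
      (mul_mem (inv_mem vQ) (Normal.conj_mem inferInstance v vQ g))
    have := H8.eq_one_of_orderOf_pow_of_coprime ol ((hs.coprime_iff_not_dvd.2 e).symm.coprime_dvd_left
      ((Subgroup.orderOf_dvd_natCard _ h3).trans h1))
    rwa [inv_mul_eq_one, eq_comm, mul_inv_eq_iff_eq_mul] at this
  obtain ⟨P⟩ := (inferInstance : Nonempty (Sylow b0 G))
  have PQ : (P : Subgroup G) ≤ pCore b0 G := fun w hw =>
    (H8.exists_orderOf_eq_pow_of_mem P.isPGroup' hw).elim (LE w)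
  obtain ⟨n, hn⟩ := IsPGroup.iff_card.1 hQ
  have cQ : ∀ z : G, ¬ b0 ∣ cs z → z ∈ 𝐂(pCore b0 G) := fun z e => mem_cent_iff_cent1.2
    (H7.le_of_normal_of_coprime_index (hn ▸ (hs.coprime_iff_not_dvd.2 e).pow_left n))
  have iQ : ¬ b0 ∣ (pCore b0 G).index := fun e => P.not_dvd_index (e.trans (index_dvd_of_le PQ))
  refine hr.one_lt.ne' (Nat.dvd_one.1 ?_)
  rwa [← H9.index_centralizer_eq_one_iff.2 (central_of_pow hQ iQ (fun z hz z1 => ?_) vQ
    (fun e => iQ.elim ?_) (LE u m ou) (cQ u (hA u pu ru)))]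
  · have e := of_not_not (mt (cQ z) z1)
    exact (H8.exists_orderOf_eq_pow_of_mem hQ hz).elim fun j oz => LC z (pk oz (ne z e)) e
  · exact bv.trans (index_dvd_of_le (mem_cent_iff_cent1.1 e))

end Cfsg.Agent.P10.Q
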